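import Mathlib

/-!
The Cayley transform in a ring with an anti-involution, and the count of the isometries
commuting with a regular skew nilpotent element.
-/

set_option autoImplicit false
open Polynomial

namespace Cfsg.Agent.Lib.SpReg.Cayley

variable {F R : Type*} [Field F] [Ring R] [Algebra F R]

/-- An `F`-linear anti-involution. -/
structure Adj (F : Type*) [Field F] {R : Type*} [Ring R] [Algebra F R] (θ : R → R) : Prop where
  add : ∀ x y, θ (x + y) = θ x + θ y
  mul : ∀ x y, θ (x * y) = θ y * θ x
  one : θ 1 = 1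
  smul : ∀ (c : F) x, θ (c • x) = c • θ x
  invol : ∀ x, θ (θ x) = x

variable {θ : R → R}

namespace Adj

theorem zero (h : Adj F θ) : θ 0 = 0 := by
  have := h.add 0 0
  simpa using this

theorem neg (h : Adj F θ) (x : R) : θ (-x) = - θ x := by
  have h1 := h.add x (-x)
  rw [add_neg_cancel, h.zero] at h1
  exact eq_neg_of_add_eq_zero_right h1.symm

theorem sub (h : Adj F θ) (x y : R) : θ (x - y) = θ x - θ y := by
  rw [sub_eq_add_neg, h.add, h.neg, sub_eq_add_neg]

theorem pow (h : Adj F θ) (x : R) (k : ℕ) : θ (x ^ k) = (θ x) ^ k := by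
  induction k with
  | zero => simp [h.one]
  | succ k ih => rw [pow_succ, h.mul, ih, pow_succ']

theorem aeval (h : Adj F θ) (s : R) (p : F[X]) : θ (Polynomial.aeval s p) = Polynomial.aeval (θ s) p := by
  induction p using Polynomial.induction_on' with
  | add p q hp hq => rw [map_add, map_add, h.add, hp, hq]
  | monomial k c =>
    simp only [Polynomial.aeval_monomial, Algebra.algebraMap_eq_smul_one, smul_mul_assoc, one_mul]
    rw [h.smul, h.pow]

theorem aeval_neg (h : Adj F θ) {s : R} (hs : θ s = -s) (p : F[X]) :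
    θ (Polynomial.aeval s p) = Polynomial.aeval s (p.comp (-X)) := by
  rw [h.aeval, hs, Polynomial.aeval_comp]
  simp

theorem inverse_mul (h : Adj F θ) {x : R} (hx : IsUnit x) : θ (Ring.inverse x) * θ x = 1 := by
  rw [← h.mul, Ring.mul_inverse_cancel x hx, h.one]

theorem mul_inverse (h : Adj F θ) {x : R} (hx : IsUnit x) : θ x * θ (Ring.inverse x) = 1 := by
  rw [← h.mul, Ring.inverse_mul_cancel x hx, h.one]

end Adj

theorem comm_inverse {x y : R} (hx : IsUnit x) (h : Commute x y) : Commute (Ring.inverse x) y := by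
  obtain ⟨v, rfl⟩ := hx
  rw [Ring.inverse_unit]
  exact (h.units_inv_left)

section cayley

variable (h2 : (2 : F) ≠ 0)
include h2

theorem two_unit_add {x : R} (hx : IsNilpotent x) : IsUnit (x + (2 : F) • 1) := by
  have h1 : IsUnit ((2 : F) • (1 : R)) := by
    have : IsUnit (algebraMap F R 2) := (IsUnit.mk0 (2 : F) h2).map _
    rwa [Algebra.algebraMap_eq_smul_one] at this
  exact IsNilpotent.isUnit_add_right_of_commute hx h1 (by
    show x * _ = _ * x
    simp)

theorem add_one_unit {g : R} (hg : IsNilpotent (g - 1)) : IsUnit (g + 1) := by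
  have h1 := two_unit_add (R := R) h2 hg
  have h3 : g - 1 + (2 : F) • (1 : R) = g + 1 := by
    rw [two_smul]
    abel
  rwa [h3] at h1

omit h2 in
theorem one_sub_unit {t : R} (ht : IsNilpotent t) : IsUnit (1 - t) := ht.isUnit_one_sub

omit h2 in
theorem one_add_unit {t : R} (ht : IsNilpotent t) : IsUnit (1 + t) := ht.isUnit_one_add

end cayley

/-- Cayley transform. -/
noncomputable def cay (t : R) : R := (1 + t) * Ring.inverse (1 - t)

/-- Inverse Cayley transform. -/
noncomputable def yac (g : R) : R := (g - 1) * Ring.inverse (g + 1)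

section

/-- The Cayley transform of a skew nilpotent element is an isometry. -/
theorem cay_isom (hθ : Adj F θ) {t : R} (ht : θ t = -t) (hn : IsNilpotent t) : θ (cay t) * cay t = 1 := by
  have hu := one_sub_unit hn
  have hu' := one_add_unit hn
  have h1 : θ (1 - t) = 1 + t := by rw [hθ.sub, hθ.one, ht]; abel
  have h2 : θ (1 + t) = 1 - t := by rw [hθ.add, hθ.one, ht]; abel
  have h3 := hθ.inverse_mul hu
  rw [h1] at h3
  unfold cay
  rw [hθ.mul, h2]
  have h4 : (1 - t) * (1 + t) = (1 + t) * (1 - t) := by noncomm_ring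
  calc θ (Ring.inverse (1 - t)) * (1 - t) * ((1 + t) * Ring.inverse (1 - t))
      = θ (Ring.inverse (1 - t)) * ((1 - t) * (1 + t)) * Ring.inverse (1 - t) := by noncomm_ring
    _ = (θ (Ring.inverse (1 - t)) * (1 + t)) * ((1 - t) * Ring.inverse (1 - t)) := by
        rw [h4]; noncomm_ring
    _ = 1 := by rw [h3, Ring.mul_inverse_cancel _ hu, one_mul]

theorem cay_comm {t y : R} (hn : IsNilpotent t) (h : Commute t y) : Commute (cay t) y := by
  have hu := one_sub_unit hn
  unfold cay
  exact ((Commute.one_left y).add_left h).mul_left (comm_inverse hu ((Commute.one_left y).sub_left h))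

theorem comm_self_inverse {t : R} (hn : IsNilpotent t) : Commute t (Ring.inverse (1 - t)) :=
  (comm_inverse (one_sub_unit hn) ((Commute.one_left t).sub_left (Commute.refl t))).symm

/-- Formula for `cay t - 1`. -/
theorem cay_sub_one {t : R} (hn : IsNilpotent t) :
    cay t - 1 = (t + t) * Ring.inverse (1 - t) := by
  have hu := one_sub_unit hn
  have h1 : (1 - t) * Ring.inverse (1 - t) = 1 := Ring.mul_inverse_cancel _ hu
  unfold cay
  calc (1 + t) * Ring.inverse (1 - t) - 1 = (1 + t) * Ring.inverse (1 - t) - (1 - t) * Ring.inverse (1 - t) := by rw [h1]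
    _ = _ := by noncomm_ring

/-- Formula for `cay t + 1`. -/
theorem cay_add_one {t : R} (hn : IsNilpotent t) :
    cay t + 1 = (1 + 1) * Ring.inverse (1 - t) := by
  have hu := one_sub_unit hn
  have h1 : (1 - t) * Ring.inverse (1 - t) = 1 := Ring.mul_inverse_cancel _ hu
  unfold cay
  calc (1 + t) * Ring.inverse (1 - t) + 1 = (1 + t) * Ring.inverse (1 - t) + (1 - t) * Ring.inverse (1 - t) := by rw [h1]
    _ = _ := by noncomm_ring

theorem cay_nil {t : R} (hn : IsNilpotent t) : IsNilpotent (cay t - 1) := by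
  rw [cay_sub_one hn]
  have h1 : Commute (t + t) (Ring.inverse (1 - t)) := (comm_self_inverse hn).add_left (comm_self_inverse hn)
  apply h1.isNilpotent_mul_right
  exact (Commute.refl t).isNilpotent_add hn hn

theorem yac_cay (h2 : (2 : F) ≠ 0) {t : R} (hn : IsNilpotent t) : yac (cay t) = t := by
  have hnil := cay_nil hn
  have hu := add_one_unit (R := R) h2 hnil
  have h1 : t * (cay t + 1) = cay t - 1 := by
    rw [cay_add_one hn, cay_sub_one hn]
    noncomm_ring
  unfold yac
  rw [← h1, mul_assoc, Ring.mul_inverse_cancel _ hu, mul_one]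

theorem yac_mul (h2 : (2 : F) ≠ 0) {g : R} (hg : IsNilpotent (g - 1)) : yac g * (g + 1) = g - 1 := by
  unfold yac
  rw [mul_assoc, Ring.inverse_mul_cancel _ (add_one_unit (R := R) h2 hg), mul_one]

theorem comm_yac (h2 : (2 : F) ≠ 0) {g y : R} (hg : IsNilpotent (g - 1)) (h : Commute g y) :
    Commute (yac g) y := by
  unfold yac
  exact (h.sub_left (Commute.one_left y)).mul_left
    (comm_inverse (add_one_unit (R := R) h2 hg) (h.add_left (Commute.one_left y)))

theorem yac_nil (h2 : (2 : F) ≠ 0) {g : R} (hg : IsNilpotent (g - 1)) : IsNilpotent (yac g) := by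
  unfold yac
  have h1 : Commute (g - 1) (Ring.inverse (g + 1)) := by
    apply Commute.symm
    apply comm_inverse (add_one_unit (R := R) h2 hg)
    show (g + 1) * (g - 1) = (g - 1) * (g + 1)
    noncomm_ring
  exact h1.isNilpotent_mul_right hg

theorem cay_yac (h2 : (2 : F) ≠ 0) {g : R} (hg : IsNilpotent (g - 1)) : cay (yac g) = g := by
  have hn := yac_nil (R := R) h2 hg
  have hu := one_sub_unit hn
  have h1 := yac_mul (R := R) h2 hg
  have h3 : Commute (yac g) (g + 1) := by
    apply comm_yac h2 hg
    show g * (g + 1) = (g + 1) * g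
    noncomm_ring
  have h4 : 1 + yac g = g * (1 - yac g) := by
    have h5 : (g + 1) * yac g = g - 1 := by rw [← h3.eq, h1]
    have : g * (1 - yac g) - (1 + yac g) = 0 := by
      calc g * (1 - yac g) - (1 + yac g) = g - 1 - (g + 1) * yac g := by noncomm_ring
        _ = 0 := by rw [h5, sub_self]
    exact (sub_eq_zero.mp this).symm
  unfold cay
  rw [h4, mul_assoc, Ring.mul_inverse_cancel _ hu, mul_one]

/-- The inverse Cayley transform of an isometry is skew. -/
theorem yac_skew (h2 : (2 : F) ≠ 0) (hθ : Adj F θ) {g : R} (hg : IsNilpotent (g - 1)) (hiso : θ g * g = 1) :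
    θ (yac g) = - yac g := by
  set h := θ g with hh
  have hu := add_one_unit (R := R) h2 hg
  have hb := hθ.inverse_mul hu
  rw [hθ.add, hθ.one, ← hh] at hb
  have h3 : (g + 1) * Ring.inverse (g + 1) = 1 := Ring.mul_inverse_cancel _ hu
  have h4 : (h + 1) * (- yac g) = h - 1 := by
    unfold yac
    calc (h + 1) * (-((g - 1) * Ring.inverse (g + 1))) = (h - h * g - g + 1) * Ring.inverse (g + 1) := by noncomm_ring
      _ = (h - g) * Ring.inverse (g + 1) := by rw [hiso]; congr 1; abel
      _ = (h * g + h - g - 1) * Ring.inverse (g + 1) := by rw [hiso]; congr 1; abel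
      _ = (h - 1) * ((g + 1) * Ring.inverse (g + 1)) := by noncomm_ring
      _ = h - 1 := by rw [h3, mul_one]
  have h5 : θ (yac g) = θ (Ring.inverse (g + 1)) * (h - 1) := by
    unfold yac
    rw [hθ.mul, hθ.sub, hθ.one]
  rw [h5, ← h4, ← mul_assoc, hb, one_mul]

end

section count

variable {s : R} {n m : ℕ}

omit [Ring R] [Algebra F R] in
theorem coeff_comp_neg (p : F[X]) (i : ℕ) : (p.comp (-X)).coeff i = (-1) ^ i * p.coeff i := by
  induction p using Polynomial.induction_on' with
  | add p q hp hq => simp only [add_comp, coeff_add, hp, hq, mul_add]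
  | monomial k c =>
    have h : (-X : F[X]) ^ k = C ((-1) ^ k) * X ^ k := by
      rw [neg_pow]
      simp
    rw [← C_mul_X_pow_eq_monomial, mul_comp, C_comp, pow_comp, X_comp, h, ← mul_assoc, ← C_mul,
      coeff_C_mul_X_pow, coeff_C_mul_X_pow]
    split_ifs with hik
    · subst hik
      ring
    · simp

/-- The data of a regular skew nilpotent element. -/
structure RegSkew (F : Type*) [Field F] {R : Type*} [Ring R] [Algebra F R] (θ : R → R) (s : R) (n : ℕ) : Prop where
  adj : Adj F θ
  skew : θ s = -s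
  nil : s ^ n = 0
  ind : ∀ p : F[X], Polynomial.aeval s p = 0 → ∀ i < n, p.coeff i = 0
  comm : ∀ T : R, Commute T s → ∃ p : F[X], T = Polynomial.aeval s p

/-- The skew element with coefficients `c`. -/
noncomputable def tPoly (c : Fin m → F) : F[X] := ∑ j : Fin m, monomial (2 * (j : ℕ) + 1) (c j)

omit [Ring R] [Algebra F R] in
theorem tPoly_coeff (c : Fin m → F) (j : Fin m) : (tPoly c).coeff (2 * (j : ℕ) + 1) = c j := by
  classical
  rw [tPoly, finsetSum_coeff, Finset.sum_eq_single j]
  · rw [coeff_monomial, if_pos rfl]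
  · intro b _ hb
    rw [coeff_monomial, if_neg]
    intro h
    apply hb
    apply Fin.ext
    omega
  · simp

omit [Ring R] [Algebra F R] in
theorem tPoly_coeff_even (c : Fin m → F) (k : ℕ) : (tPoly c).coeff (2 * k) = 0 := by
  rw [tPoly, finsetSum_coeff]
  refine Finset.sum_eq_zero fun j _ => ?_
  rw [coeff_monomial, if_neg]
  omega

omit [Ring R] [Algebra F R] in
theorem tPoly_comp (c : Fin m → F) : (tPoly c).comp (-X) = - tPoly c := by
  ext i
  rw [coeff_comp_neg, coeff_neg]
  rcases Nat.even_or_odd' i with ⟨k, rfl | rfl⟩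
  · rw [tPoly_coeff_even, mul_zero, neg_zero]
  · rw [pow_succ, pow_mul]
    simp

theorem comm_aeval (s : R) (p : F[X]) : Commute (Polynomial.aeval s p) s := by
  have h := (Polynomial.commute_X p).map (Polynomial.aeval s)
  simpa using h.symm

theorem nil_of_coeff_zero (hnil : s ^ n = 0) (p : F[X]) (hp : p.coeff 0 = 0) : IsNilpotent (Polynomial.aeval s p) := by
  obtain ⟨r, rfl⟩ := X_dvd_iff.mpr hp
  rw [map_mul, aeval_X]
  exact ((comm_aeval s r).symm).isNilpotent_mul_right ⟨n, hnil⟩

theorem aeval_eq_of_coeff (hnil : s ^ n = 0) (p p' : F[X]) (h : ∀ i < n, p.coeff i = p'.coeff i) :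
    Polynomial.aeval s p = Polynomial.aeval s p' := by
  have h1 : X ^ n ∣ p - p' := by
    rw [X_pow_dvd_iff]
    intro d hd
    rw [coeff_sub, h d hd, sub_self]
  obtain ⟨r, hr⟩ := h1
  have h2 : Polynomial.aeval s (p - p') = 0 := by
    rw [hr, map_mul, map_pow, aeval_X, hnil, zero_mul]
  rw [map_sub] at h2
  exact sub_eq_zero.mp h2

namespace RegSkew

variable (hS : RegSkew F θ s (2 * m))
include hS

/-- The skew elements commuting with `s` correspond to tuples of coefficients. -/
theorem skew_iff (h2 : (2 : F) ≠ 0) (t : R) :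
    (θ t = -t ∧ Commute t s) ↔ ∃ c : Fin m → F, t = Polynomial.aeval s (tPoly c) := by
  constructor
  · rintro ⟨h1, h3⟩
    obtain ⟨p, rfl⟩ := hS.comm t h3
    rw [hS.adj.aeval_neg hS.skew] at h1
    have h4 : Polynomial.aeval s (p.comp (-X) + p) = 0 := by
      rw [map_add, h1, neg_add_cancel]
    have h5 := hS.ind _ h4
    refine ⟨fun j => p.coeff (2 * (j : ℕ) + 1), ?_⟩
    apply aeval_eq_of_coeff hS.nil
    intro i hi
    rcases Nat.even_or_odd' i with ⟨k, rfl | rfl⟩
    · rw [tPoly_coeff_even]
      have h6 := h5 (2 * k) hi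
      rw [coeff_add, coeff_comp_neg, pow_mul] at h6
      simp only [even_two, Even.neg_pow, one_pow, one_mul] at h6
      have h7 : (2 : F) * p.coeff (2 * k) = 0 := by rw [two_mul]; exact h6
      exact (mul_eq_zero.mp h7).resolve_left h2
    · have hk : k < m := by omega
      exact (tPoly_coeff (fun j : Fin m => p.coeff (2 * (j : ℕ) + 1)) ⟨k, hk⟩).symm
  · rintro ⟨c, rfl⟩
    refine ⟨?_, comm_aeval s _⟩
    rw [hS.adj.aeval_neg hS.skew, tPoly_comp, map_neg]

theorem tPoly_inj {c c' : Fin m → F} (h : Polynomial.aeval s (tPoly c) = Polynomial.aeval s (tPoly c')) : c = c' := by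
  funext j
  have h1 : Polynomial.aeval s (tPoly c - tPoly c') = 0 := by rw [map_sub, h, sub_self]
  have h3 := hS.ind _ h1 (2 * (j : ℕ) + 1) (by omega)
  rw [coeff_sub, tPoly_coeff, tPoly_coeff] at h3
  exact sub_eq_zero.mp h3

theorem skew_nil (h2 : (2 : F) ≠ 0) {t : R} (h1 : θ t = -t) (h3 : Commute t s) : IsNilpotent t := by
  obtain ⟨c, rfl⟩ := (hS.skew_iff h2 t).mp ⟨h1, h3⟩
  exact nil_of_coeff_zero hS.nil _ (tPoly_coeff_even c 0)

/-- Number of skew elements commuting with `s`. -/
theorem card_skew [Fintype F] (h2 : (2 : F) ≠ 0) :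
    Nat.card {t : R // θ t = -t ∧ Commute t s} = Fintype.card F ^ m := by
  let f : (Fin m → F) → {t : R // θ t = -t ∧ Commute t s} := fun c =>
    ⟨Polynomial.aeval s (tPoly c), (hS.skew_iff h2 _).mpr ⟨c, rfl⟩⟩
  have hf : Function.Bijective f := by
    constructor
    · intro c c' h
      exact hS.tPoly_inj (congrArg Subtype.val h)
    · rintro ⟨t, ht⟩
      obtain ⟨c, rfl⟩ := (hS.skew_iff h2 t).mp ht
      exact ⟨c, rfl⟩
  rw [← Nat.card_congr (Equiv.ofBijective f hf), Nat.card_eq_fintype_card, Fintype.card_fun, Fintype.card_fin]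

/-- The isometries commuting with `s` that are unipotent correspond to the skew elements. -/
theorem card_cent_one [Fintype F] (h2 : (2 : F) ≠ 0) :
    Nat.card {g : R // θ g * g = 1 ∧ Commute g s ∧ IsNilpotent (g - 1)} = Fintype.card F ^ m := by
  rw [← hS.card_skew h2]
  symm
  apply Nat.card_congr
  exact
    { toFun := fun t => ⟨cay t.1, cay_isom hS.adj t.2.1 (hS.skew_nil h2 t.2.1 t.2.2),
        cay_comm (hS.skew_nil h2 t.2.1 t.2.2) t.2.2, cay_nil (hS.skew_nil h2 t.2.1 t.2.2)⟩
      invFun := fun g => ⟨yac g.1, yac_skew h2 hS.adj g.2.2.2 g.2.1, comm_yac h2 g.2.2.2 g.2.2.1⟩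
      left_inv := fun t => Subtype.ext (yac_cay h2 (hS.skew_nil h2 t.2.1 t.2.2))
      right_inv := fun g => Subtype.ext (cay_yac h2 g.2.2.2) }

/-- An isometry commuting with `s` is `±` a unipotent. -/
theorem cent_or (hm : 1 ≤ m) {g : R} (h1 : θ g * g = 1) (h3 : Commute g s) :
    IsNilpotent (g - 1) ∨ IsNilpotent (g + 1) := by
  obtain ⟨p, rfl⟩ := hS.comm g h3
  rw [hS.adj.aeval_neg hS.skew, ← map_mul] at h1
  have h4 : Polynomial.aeval s (p.comp (-X) * p - 1) = 0 := by
    rw [map_sub, h1, map_one, sub_self]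
  have h5 := hS.ind _ h4 0 (by omega)
  rw [coeff_sub, mul_coeff_zero, coeff_comp_neg, coeff_one_zero] at h5
  have h6 : (p.coeff 0 - 1) * (p.coeff 0 + 1) = 0 := by
    simp only [pow_zero, one_mul] at h5
    linear_combination h5
  rcases mul_eq_zero.mp h6 with h7 | h7
  · left
    have := nil_of_coeff_zero hS.nil (p - 1) (by rw [coeff_sub, coeff_one_zero]; exact h7)
    simpa using this
  · right
    have := nil_of_coeff_zero hS.nil (p + 1) (by rw [coeff_add, coeff_one_zero]; exact h7)
    simpa using this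

/-- The number of isometries commuting with `s`. -/
theorem card_cent [Fintype F] (h2 : (2 : F) ≠ 0) (hm : 1 ≤ m) :
    Nat.card {g : R // θ g * g = 1 ∧ Commute g s} = 2 * Fintype.card F ^ m := by
  have hnt : Nontrivial R := by
    by_contra hcon
    rw [not_nontrivial_iff_subsingleton] at hcon
    have h3 := hS.ind 1 (Subsingleton.elim _ _) 0 (by omega)
    rw [coeff_one_zero] at h3
    exact one_ne_zero h3
  have hboth : ∀ g : R, IsNilpotent (g - 1) → IsNilpotent (g + 1) → False := by
    intro g h3 h4
    have h5 : Commute (g + 1) (g - 1) := by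
      show (g + 1) * (g - 1) = (g - 1) * (g + 1)
      noncomm_ring
    have h6 := h5.isNilpotent_sub h4 h3
    have h7 : g + 1 - (g - 1) = (2 : F) • (1 : R) := by
      rw [two_smul]
      abel
    rw [h7] at h6
    have h8 : IsUnit ((2 : F) • (1 : R)) := by
      have : IsUnit (algebraMap F R 2) := (IsUnit.mk0 (2 : F) h2).map _
      rwa [Algebra.algebraMap_eq_smul_one] at this
    exact IsNilpotent.not_isUnit h6 h8
  have hfin : Finite {g : R // θ g * g = 1 ∧ Commute g s ∧ IsNilpotent (g - 1)} := by
    apply Nat.finite_of_card_ne_zero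
    rw [hS.card_cent_one h2]
    exact pow_ne_zero _ Fintype.card_ne_zero
  rw [← hS.card_cent_one h2, two_mul, ← Nat.card_sum]
  · symm
    apply Nat.card_congr
    let C1 := {g : R // θ g * g = 1 ∧ Commute g s ∧ IsNilpotent (g - 1)}
    let f : C1 ⊕ C1 → {g : R // θ g * g = 1 ∧ Commute g s} := fun x => match x with
      | Sum.inl g => ⟨g.1, g.2.1, g.2.2.1⟩
      | Sum.inr g => ⟨- g.1, by
          rw [hS.adj.neg, neg_mul_neg]
          exact g.2.1, g.2.2.1.neg_left⟩
    have hf : Function.Bijective f := by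
      constructor
      · rintro (g | g) (g' | g') h
        · have := congrArg Subtype.val h
          exact congrArg Sum.inl (Subtype.ext this)
        · exfalso
          have h3 : g.1 = - g'.1 := congrArg Subtype.val h
          apply hboth g.1 g.2.2.2
          rw [h3]
          have := g'.2.2.2.neg
          convert this using 1
          abel
        · exfalso
          have h3 : - g.1 = g'.1 := congrArg Subtype.val h
          apply hboth g'.1 g'.2.2.2
          rw [← h3]
          have := g.2.2.2.neg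
          convert this using 1
          abel
        · have h3 : - g.1 = - g'.1 := congrArg Subtype.val h
          exact congrArg Sum.inr (Subtype.ext (neg_injective h3))
      · rintro ⟨g, h3, h4⟩
        rcases hS.cent_or hm h3 h4 with h5 | h5
        · exact ⟨Sum.inl ⟨g, h3, h4, h5⟩, rfl⟩
        · refine ⟨Sum.inr ⟨-g, ?_, h4.neg_left, ?_⟩, ?_⟩
          · rw [hS.adj.neg, neg_mul_neg]
            exact h3
          · have := h5.neg
            convert this using 1
            abel
          · apply Subtype.ext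
            exact neg_neg g
    exact Equiv.ofBijective f hf

end RegSkew

end count

end Cfsg.Agent.Lib.SpReg.Cayley
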