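import Cfsg.Agent.Lib.SpReg.Exists

/-!
The two classes of regular unipotent elements of `Sp_2m(F)`, `F` finite of odd order.
-/

set_option autoImplicit false
open Polynomial Module Cfsg Cfsg.Agent.Lib.MatConj.RegUnip Cfsg.Agent.Lib.SpReg.Cayley Cfsg.Agent.Lib.SpReg.SpMat
open Cfsg.Agent.Lib.Classical.SympForm Cfsg.Agent.Lib.Jordan.GL Cfsg.Agent.Lib.Jordan.GU
open scoped Matrix

namespace Cfsg.Agent.Lib.SpReg.Classes

variable {F : Type*} [Field F] {m : ℕ}

theorem form_smul_right (x y : Fin m ⊕ Fin m → F) (c : F) : sympForm m F x (c • y) = c * sympForm m F x y := by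
  rw [← sympBilin_apply, map_smul, sympBilin_apply, smul_eq_mul]

/-- The value of the invariant quadratic form. -/
noncomputable def Qf (u : Matrix (Fin m ⊕ Fin m) (Fin m ⊕ Fin m) F) (x : Fin m ⊕ Fin m → F) : F :=
  sympForm m F x ((yac u) ^ (2 * m - 1) *ᵥ x)

/-- Regular unipotent elements. -/
structure IsRegSp (u : Matrix (Fin m ⊕ Fin m) (Fin m ⊕ Fin m) F) : Prop where
  iso : adj u * u = 1
  nil : (u - 1) ^ (2 * m) = 0
  rank : (u - 1).rank = 2 * m - 1

theorem IsRegSp.nilp {u : Matrix (Fin m ⊕ Fin m) (Fin m ⊕ Fin m) F} (h : IsRegSp u) : IsNilpotent (u - 1) := ⟨_, h.nil⟩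

theorem IsRegSp.iso' {u : Matrix (Fin m ⊕ Fin m) (Fin m ⊕ Fin m) F} (h : IsRegSp u) : u * adj u = 1 :=
  mul_eq_one_comm.mp h.iso

theorem IsRegSp.reg (h2 : (2 : F) ≠ 0) (hm : 1 ≤ m) {u : Matrix (Fin m ⊕ Fin m) (Fin m ⊕ Fin m) F} (h : IsRegSp u) :
    RegSkew F adj (yac u) (2 * m) := regSkew_yac h2 hm u h.iso h.nil h.rank

section poly
variable {s : Matrix (Fin m ⊕ Fin m) (Fin m ⊕ Fin m) F}

/-- Multiplication of a polynomial in `s` with the top power of `s`. -/
theorem aeval_mul_top (hS : RegSkew F adj s (2 * m)) (hm : 1 ≤ m) (p : F[X]) :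
    Polynomial.aeval s p * s ^ (2 * m - 1) = p.coeff 0 • s ^ (2 * m - 1) := by
  conv_lhs => rw [← divX_mul_X_add p]
  have h1 : s * s ^ (2 * m - 1) = 0 := by
    rw [← pow_succ', Nat.sub_add_cancel (by omega), hS.nil]
  simp only [map_add, map_mul, aeval_X, aeval_C, Algebra.algebraMap_eq_smul_one, add_mul, smul_mul_assoc, one_mul]
  rw [mul_assoc, h1, mul_zero, zero_add]

/-- Every vector is a polynomial in `s` applied to a cyclic vector. -/
theorem exists_poly_vec (hS : RegSkew F adj s (2 * m)) (hrank : s.rank = 2 * m - 1) (hm : 1 ≤ m) {w : Fin m ⊕ Fin m → F}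
    (hw : s ^ (2 * m - 1) *ᵥ w ≠ 0) (x : Fin m ⊕ Fin m → F) : ∃ p : F[X], x = Polynomial.aeval s p *ᵥ w := by
  classical
  have hV : finrank F (Fin m ⊕ Fin m → F) = 2 * m := by simp; ring
  have hnil' : (Matrix.mulVecLin s) ^ (2 * m) = 0 := by
    rw [← mulVecLin_pow, hS.nil, Matrix.mulVecLin_zero]
  have hw' : ((Matrix.mulVecLin s) ^ (2 * m - 1)) w ≠ 0 := by
    rw [← mulVecLin_pow, Matrix.mulVecLin_apply]
    exact hw
  let b := cyclicBasis hV hnil' hw'
  refine ⟨∑ i : Fin (2 * m), C (b.repr x i) * X ^ (i : ℕ), ?_⟩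
  conv_lhs => rw [← b.sum_repr x]
  simp only [map_sum, map_mul, aeval_C, aeval_X, map_pow, Algebra.algebraMap_eq_smul_one, smul_mul_assoc, one_mul]
  rw [Matrix.sum_mulVec]
  refine Finset.sum_congr rfl fun i _ => ?_
  simp only [b, cyclicBasis_apply]
  rw [Matrix.smul_mulVec, ← mulVecLin_pow, Matrix.mulVecLin_apply]

theorem adj_aeval_mul_top (hS : RegSkew F adj s (2 * m)) (hm : 1 ≤ m) (p : F[X]) :
    adj (Polynomial.aeval s p) * s ^ (2 * m - 1) = p.coeff 0 • s ^ (2 * m - 1) := by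
  rw [hS.adj.aeval_neg hS.skew, aeval_mul_top hS hm, coeff_comp_neg]
  simp

/-- The quadratic form on a polynomial multiple. -/
theorem Q_poly (hS : RegSkew F adj s (2 * m)) (hm : 1 ≤ m) (p : F[X]) (w y : Fin m ⊕ Fin m → F) :
    sympForm m F (Polynomial.aeval s p *ᵥ w) (s ^ (2 * m - 1) *ᵥ y) = p.coeff 0 * sympForm m F w (s ^ (2 * m - 1) *ᵥ y) := by
  rw [form_adj, Matrix.mulVec_mulVec, adj_aeval_mul_top hS hm, Matrix.smul_mulVec, form_smul_right]

end poly

section qf
variable {u : Matrix (Fin m ⊕ Fin m) (Fin m ⊕ Fin m) F}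

theorem Qf_poly (hS : RegSkew F adj (yac u) (2 * m)) (hm : 1 ≤ m) (p : F[X]) (w : Fin m ⊕ Fin m → F) :
    Qf u (Polynomial.aeval (yac u) p *ᵥ w) = p.coeff 0 ^ 2 * Qf u w := by
  unfold Qf
  have h1 : yac u ^ (2 * m - 1) *ᵥ Polynomial.aeval (yac u) p *ᵥ w = p.coeff 0 • (yac u ^ (2 * m - 1) *ᵥ w) := by
    rw [Matrix.mulVec_mulVec]
    have h3 : Commute (yac u ^ (2 * m - 1)) (Polynomial.aeval (yac u) p) :=
      ((comm_aeval (yac u) p).pow_right _).symm
    rw [h3.eq, aeval_mul_top hS hm, Matrix.smul_mulVec]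
  rw [h1, form_smul_right, Q_poly hS hm]
  ring

theorem Qf_ne (hS : RegSkew F adj (yac u) (2 * m)) (hrank : (yac u).rank = 2 * m - 1) (hm : 1 ≤ m)
    {w : Fin m ⊕ Fin m → F} (hw : yac u ^ (2 * m - 1) *ᵥ w ≠ 0) : Qf u w ≠ 0 := by
  intro h0
  apply hw
  apply sympBilin_nondegenerate.2
  intro x
  obtain ⟨p, rfl⟩ := exists_poly_vec hS hrank hm hw x
  rw [sympBilin_apply, Q_poly hS hm]
  unfold Qf at h0
  rw [h0, mul_zero]

theorem rank_yac (h2 : (2 : F) ≠ 0) (h : IsRegSp u) : (yac u).rank = 2 * m - 1 := by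
  have hunit := add_one_unit (R := Matrix (Fin m ⊕ Fin m) (Fin m ⊕ Fin m) F) h2 h.nilp
  have hinv : IsUnit (Ring.inverse (u + 1)).det :=
    Matrix.isUnit_det_of_left_inverse (Ring.mul_inverse_cancel _ hunit)
  unfold yac
  rw [Matrix.rank_mul_eq_left_of_isUnit_det _ _ hinv, h.rank]

/-- Conjugation and the Cayley transform. -/
theorem yac_conj (h2 : (2 : F) ≠ 0) {u' G : Matrix (Fin m ⊕ Fin m) (Fin m ⊕ Fin m) F} (h : IsNilpotent (u - 1))
    (h' : IsNilpotent (u' - 1)) (hG : G * u = u' * G) : G * yac u = yac u' * G := by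
  have hunit := add_one_unit (R := Matrix (Fin m ⊕ Fin m) (Fin m ⊕ Fin m) F) h2 h
  apply (hunit.mul_left_inj).mp
  rw [mul_assoc, yac_mul h2 h, mul_assoc]
  have h1 : G * (u + 1) = (u' + 1) * G := by
    rw [mul_add, add_mul, hG, mul_one, one_mul]
  rw [h1, ← mul_assoc, yac_mul h2 h', mul_sub, sub_mul, hG, mul_one, one_mul]

/-- The form `Q` after conjugation. -/
theorem Qf_conj (h2 : (2 : F) ≠ 0) {u' G : Matrix (Fin m ⊕ Fin m) (Fin m ⊕ Fin m) F} (h : IsNilpotent (u - 1))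
    (h' : IsNilpotent (u' - 1)) (hG : G * u = u' * G) (x : Fin m ⊕ Fin m → F) :
    Qf u' (G *ᵥ x) = sympForm m F x ((adj G * G) *ᵥ ((yac u) ^ (2 * m - 1) *ᵥ x)) := by
  unfold Qf
  have h1 : SemiconjBy G (yac u) (yac u') := yac_conj h2 h h' hG
  have h3 : yac u' ^ (2 * m - 1) * G = G * yac u ^ (2 * m - 1) := ((h1.pow_right _).eq).symm
  rw [Matrix.mulVec_mulVec, h3, ← Matrix.mulVec_mulVec, form_adj, Matrix.mulVec_mulVec _ (adj G) G]

theorem H_comm (h2 : (2 : F) ≠ 0) {u' G : Matrix (Fin m ⊕ Fin m) (Fin m ⊕ Fin m) F} (h : IsRegSp u)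
    (h' : IsRegSp u') (hG : G * u = u' * G) : Commute (adj G * G) (yac u) := by
  have h1 : adj u * adj G = adj G * adj u' := by
    rw [← adj_adj.mul, hG, adj_adj.mul]
  have h3 : adj G * u' = u * adj G := by
    calc adj G * u' = (u * adj u) * adj G * u' := by rw [h.iso', one_mul]
      _ = u * (adj u * adj G) * u' := by noncomm_ring
      _ = u * adj G * (adj u' * u') := by rw [h1]; noncomm_ring
      _ = _ := by rw [h'.iso, mul_one]
  have h4 : Commute u (adj G * G) := by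
    show u * (adj G * G) = adj G * G * u
    rw [mul_assoc (adj G) G u, hG, ← mul_assoc (adj G) u' G, h3, mul_assoc]
  exact (comm_yac h2 h.nilp h4).symm

/-- The scalar relating the forms. -/
theorem Qf_of_poly (hS : RegSkew F adj (yac u) (2 * m)) (h2 : (2 : F) ≠ 0) (hm : 1 ≤ m)
    {u' G : Matrix (Fin m ⊕ Fin m) (Fin m ⊕ Fin m) F} (h : IsNilpotent (u - 1))
    (h' : IsNilpotent (u' - 1)) (hG : G * u = u' * G) {p : F[X]} (hp : adj G * G = Polynomial.aeval (yac u) p)
    (x : Fin m ⊕ Fin m → F) : Qf u' (G *ᵥ x) = p.coeff 0 * Qf u x := by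
  rw [Qf_conj h2 h h' hG, hp, Matrix.mulVec_mulVec, aeval_mul_top hS hm, Matrix.smul_mulVec, form_smul_right]
  rfl

/-- A square root of a `θ`-fixed element with square leading coefficient. -/
theorem exists_sqrt [Fintype F] (hS : RegSkew F adj (yac u) (2 * m)) (h2 : (2 : F) ≠ 0)
    {H : Matrix (Fin m ⊕ Fin m) (Fin m ⊕ Fin m) F} (hH : adj H = H) {p : F[X]} (hp : H = Polynomial.aeval (yac u) p)
    {c : F} (hc : c ≠ 0) (hc2 : p.coeff 0 = c ^ 2) :
    ∃ y, adj y * y = H ∧ ∀ T, Commute H T → Commute y T := by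
  classical
  set p₀ := p.coeff 0 with hp₀
  have hp0ne : p₀ ≠ 0 := by rw [hc2]; exact pow_ne_zero _ hc
  let z := p₀⁻¹ • H
  have hz1 : z - 1 = p₀⁻¹ • Polynomial.aeval (yac u) (p - C p₀) := by
    rw [map_sub, aeval_C, ← hp, smul_sub, Algebra.algebraMap_eq_smul_one, smul_smul, inv_mul_cancel₀ hp0ne, one_smul]
  have hnil : IsNilpotent (z - 1) := by
    rw [hz1]
    apply IsNilpotent.smul
    apply nil_of_coeff_zero hS.nil
    rw [coeff_sub, coeff_C_zero, sub_self]
  obtain ⟨k, hk⟩ := hnil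
  obtain ⟨r, hr⟩ := CharP.exists F
  haveI := hr
  haveI : Fact r.Prime := ⟨CharP.char_is_prime F r⟩
  have hrodd : Odd r := by
    rcases (Fact.out : r.Prime).eq_two_or_odd' with h | h
    · subst h
      exact absurd (by exact_mod_cast CharP.cast_eq_zero F 2) h2
    · exact h
  have hkle : k ≤ r ^ k := (Nat.lt_pow_self (Fact.out : r.Prime).one_lt).le
  have h0 : (z - 1) ^ (r ^ k) = 0 := by
    rw [← Nat.sub_add_cancel hkle, pow_add, hk, mul_zero]
  have h1 : ((X : F[X]) - 1) ^ (r ^ k) = X ^ (r ^ k) - 1 := by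
    rw [sub_pow_char_pow]
    simp
  have h3 := congrArg (Polynomial.aeval z) h1
  simp only [map_pow, map_sub, aeval_X, map_one] at h3
  rw [h0] at h3
  have hzpow : z ^ (r ^ k) = 1 := (sub_eq_zero.mp h3.symm)
  obtain ⟨e, he⟩ : ∃ e, r ^ k + 1 = e + e := by
    obtain ⟨t, ht⟩ := hrodd.pow (n := k)
    exact ⟨t + 1, by omega⟩
  have hyy : z ^ e * z ^ e = z := by
    rw [← pow_add, ← he, pow_succ, hzpow, one_mul]
  have hadjz : adj z = z := by
    simp only [z]
    rw [adj_adj.smul, hH]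
  have hadjy : adj (z ^ e) = z ^ e := by
    rw [adj_adj.pow, hadjz]
  refine ⟨c • z ^ e, ?_, ?_⟩
  · rw [adj_adj.smul, hadjy, smul_mul_smul_comm, hyy]
    simp only [z]
    have h5 : c * c * p₀⁻¹ = 1 := by
      rw [← pow_two, ← hc2, mul_inv_cancel₀ hp0ne]
    rw [smul_smul, h5, one_smul]
  · intro T hT
    exact (((hT.smul_left p₀⁻¹).pow_left e)).smul_left c

/-- If the leading coefficient of `G† G` is a square, `u` and `u'` are conjugate by an isometry. -/
theorem conj_of_square [Fintype F] (h2 : (2 : F) ≠ 0) (hm : 1 ≤ m) {u' G : Matrix (Fin m ⊕ Fin m) (Fin m ⊕ Fin m) F}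
    (h : IsRegSp u) (h' : IsRegSp u') (hGu : IsUnit G) (hG : G * u = u' * G) {p : F[X]}
    (hp : adj G * G = Polynomial.aeval (yac u) p) {c : F} (hc : c ≠ 0) (hc2 : p.coeff 0 = c ^ 2) :
    ∃ g, adj g * g = 1 ∧ g * u = u' * g := by
  have hS := h.reg h2 hm
  have hHadj : adj (adj G * G) = adj G * G := by
    rw [adj_adj.mul, adj_adj.invol]
  obtain ⟨y, hy, hyc⟩ := exists_sqrt hS h2 hHadj hp hc hc2
  -- units
  set Gi := Ring.inverse G with hGi
  have hG1 : G * Gi = 1 := Ring.mul_inverse_cancel _ hGu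
  have hG2 : Gi * G = 1 := Ring.inverse_mul_cancel _ hGu
  have hG3 : adj Gi * adj G = 1 := by rw [← adj_adj.mul, hG1, adj_adj.one]
  have hyu : IsUnit y := by
    apply (Matrix.isUnit_iff_isUnit_det _).mpr
    apply Matrix.isUnit_det_of_left_inverse (B := Gi * adj Gi * adj y)
    rw [mul_assoc, hy]
    calc Gi * adj Gi * (adj G * G) = Gi * (adj Gi * adj G) * G := by noncomm_ring
      _ = 1 := by rw [hG3, mul_one, hG2]
  set Yi := Ring.inverse y with hYi
  have hY1 : y * Yi = 1 := Ring.mul_inverse_cancel _ hyu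
  have hY2 : Yi * y = 1 := Ring.inverse_mul_cancel _ hyu
  have hY3 : adj Yi * adj y = 1 := by rw [← adj_adj.mul, hY1, adj_adj.one]
  have hcomm : Commute (adj G * G) u := ((H_comm h2 h h' hG).symm.symm) |> fun _ => by
    have h1 : adj u * adj G = adj G * adj u' := by
      rw [← adj_adj.mul, hG, adj_adj.mul]
    have h3 : adj G * u' = u * adj G := by
      calc adj G * u' = (u * adj u) * adj G * u' := by rw [h.iso', one_mul]
        _ = u * (adj u * adj G) * u' := by noncomm_ring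
        _ = u * adj G * (adj u' * u') := by rw [h1]; noncomm_ring
        _ = _ := by rw [h'.iso, mul_one]
    show adj G * G * u = u * (adj G * G)
    rw [mul_assoc (adj G) G u, hG, ← mul_assoc (adj G) u' G, h3, mul_assoc]
  have hyc' := hyc u hcomm
  refine ⟨G * Yi, ?_, ?_⟩
  · rw [adj_adj.mul]
    calc adj Yi * adj G * (G * Yi) = adj Yi * (adj G * G) * Yi := by noncomm_ring
      _ = adj Yi * (adj y * y) * Yi := by rw [hy]
      _ = (adj Yi * adj y) * (y * Yi) := by noncomm_ring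
      _ = 1 := by rw [hY3, hY1, one_mul]
  · have h5 : Commute Yi u := comm_inverse hyu hyc'
    rw [mul_assoc, h5.eq, ← mul_assoc, hG, mul_assoc]

end qf

section invariant
variable [Fintype F]

/-- Square class invariant. -/
def Sq (u : Matrix (Fin m ⊕ Fin m) (Fin m ⊕ Fin m) F) : Prop :=
  ∃ x, Qf u x ≠ 0 ∧ IsSquare (Qf u x)

theorem sq_iff (h2 : (2 : F) ≠ 0) (hm : 1 ≤ m) {u : Matrix (Fin m ⊕ Fin m) (Fin m ⊕ Fin m) F} (h : IsRegSp u)
    {w : Fin m ⊕ Fin m → F} (hw : yac u ^ (2 * m - 1) *ᵥ w ≠ 0) : Sq u ↔ IsSquare (Qf u w) := by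
  have hS := h.reg h2 hm
  have hne := Qf_ne hS (rank_yac h2 h) hm hw
  constructor
  · rintro ⟨x, hx, hxs⟩
    obtain ⟨p, rfl⟩ := exists_poly_vec hS (rank_yac h2 h) hm hw x
    rw [Qf_poly hS hm] at hx hxs
    have hp : p.coeff 0 ≠ 0 := by
      intro h0
      apply hx
      rw [h0]
      simp
    obtain ⟨a, ha⟩ := hxs
    refine ⟨a / p.coeff 0, ?_⟩
    field_simp
    linear_combination ha
  · intro hs
    exact ⟨w, hne, hs⟩

/-- The invariant is preserved under conjugation by isometries. -/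
theorem sq_conj (h2 : (2 : F) ≠ 0) {u u' g : Matrix (Fin m ⊕ Fin m) (Fin m ⊕ Fin m) F} (h : IsNilpotent (u - 1))
    (h' : IsNilpotent (u' - 1)) (hg : adj g * g = 1) (hgu : g * u = u' * g) (hs : Sq u) : Sq u' := by
  obtain ⟨x, hx, hxs⟩ := hs
  have h1 : Qf u' (g *ᵥ x) = Qf u x := by
    rw [Qf_conj h2 h h' hgu, hg, Matrix.one_mulVec]
    rfl
  exact ⟨g *ᵥ x, by rwa [h1], by rwa [h1]⟩

omit [Fintype F] in
theorem rank_pow_gen {ι : Type*} [Fintype ι] [DecidableEq ι] {n : ℕ} (hc : Fintype.card ι = n) (N : Matrix ι ι F)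
    (hnil : N ^ n = 0) (hr : N.rank = n - 1) (s : ℕ) : (N ^ s).rank = n - s := by
  by_cases hs : s ≤ n
  · have hV : finrank F (ι → F) = n := by simp [hc]
    have h1 := finrank_ker_pow (V := ι → F) (n := n) (N := Matrix.mulVecLin N) hV
      (by rw [← mulVecLin_pow, hnil, Matrix.mulVecLin_zero]) hr hs
    rw [← mulVecLin_pow] at h1
    have h2 := LinearMap.finrank_range_add_finrank_ker (N ^ s).mulVecLin
    rw [h1, hV] at h2
    show finrank F (LinearMap.range _) = _
    omega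
  · have h1 : N ^ s = 0 := by
      have : s = (s - n) + n := by omega
      rw [this, pow_add, hnil, mul_zero]
    rw [h1, Matrix.rank_zero]
    omega

omit [Fintype F] in
/-- Regular elements are conjugate under invertible matrices. -/
theorem exists_unit_conj {u u' : Matrix (Fin m ⊕ Fin m) (Fin m ⊕ Fin m) F} (h : IsRegSp u) (h' : IsRegSp u') :
    ∃ G, IsUnit G ∧ G * u = u' * G := by
  let a : GL (Fin m ⊕ Fin m) F := ⟨u, adj u, h.iso', h.iso⟩
  let b : GL (Fin m ⊕ Fin m) F := ⟨u', adj u', h'.iso', h'.iso⟩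
  have hc : Fintype.card (Fin m ⊕ Fin m) = 2 * m := by simp; ring
  have hconj : IsConj a b := by
    apply conj_of_rank
    · refine ⟨2 * m, ?_⟩
      rw [Nm_pow]
      show (((u - 1) ^ (2 * m)).mulVecLin) = 0
      rw [h.nil, Matrix.mulVecLin_zero]
    · refine ⟨2 * m, ?_⟩
      rw [Nm_pow]
      show (((u' - 1) ^ (2 * m)).mulVecLin) = 0
      rw [h'.nil, Matrix.mulVecLin_zero]
    · intro s
      show ((u - 1) ^ s).rank = ((u' - 1) ^ s).rank
      rw [rank_pow_gen hc _ h.nil h.rank, rank_pow_gen hc _ h'.nil h'.rank]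
  obtain ⟨c, hc⟩ := isConj_iff.mp hconj
  refine ⟨c, c.isUnit, ?_⟩
  have h1 : c * a = b * c := by rw [← hc]; group
  exact congrArg (fun g : GL (Fin m ⊕ Fin m) F => (g : Matrix (Fin m ⊕ Fin m) (Fin m ⊕ Fin m) F)) h1

theorem isSquare_of_iff {a b : F} (ha : a ≠ 0) (hb : b ≠ 0) (h : IsSquare b ↔ IsSquare (a * b)) : IsSquare a := by
  classical
  by_cases hs : IsSquare b
  · have h1 := h.mp hs
    have h3 : a = (a * b) / b := by field_simp
    rw [h3]
    exact h1.div hs
  · have h1 : ¬ IsSquare (a * b) := fun h3 => hs (h.mpr h3)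
    have h3 := quadraticChar_neg_one_iff_not_isSquare.mpr hs
    have h4 := quadraticChar_neg_one_iff_not_isSquare.mpr h1
    rw [map_mul, h3] at h4
    have h5 : quadraticChar F a = 1 := by linarith
    exact (quadraticChar_one_iff_isSquare ha).mp h5

theorem isSquare_mul_nonsq {a b : F} (ha : ¬ IsSquare a) (hb : b ≠ 0) : IsSquare (a * b) ↔ ¬ IsSquare b := by
  classical
  have ha0 : a ≠ 0 := fun h => ha (by rw [h]; exact IsSquare.zero)
  have h3 := quadraticChar_neg_one_iff_not_isSquare.mpr ha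
  constructor
  · intro h hs
    have h1 : a = (a * b) / b := by field_simp
    rw [h1] at ha
    exact ha (h.div hs)
  · intro hs
    have h4 := quadraticChar_neg_one_iff_not_isSquare.mpr hs
    apply (quadraticChar_one_iff_isSquare (mul_ne_zero ha0 hb)).mp
    rw [map_mul, h3, h4]
    norm_num

/-- Regular elements with the same invariant are conjugate by an isometry. -/
theorem conj_of_sq_iff (h2 : (2 : F) ≠ 0) (hm : 1 ≤ m) {u u' : Matrix (Fin m ⊕ Fin m) (Fin m ⊕ Fin m) F}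
    (h : IsRegSp u) (h' : IsRegSp u') (hs : Sq u ↔ Sq u') : ∃ g, adj g * g = 1 ∧ g * u = u' * g := by
  obtain ⟨G, hGu, hG⟩ := exists_unit_conj h h'
  have hS := h.reg h2 hm
  have hS' := h'.reg h2 hm
  have hr := rank_yac h2 h
  have hr' := rank_yac h2 h'
  obtain ⟨p, hp⟩ := hS.comm _ (H_comm h2 h h' hG)
  have hV : finrank F (Fin m ⊕ Fin m → F) = 2 * m := by simp; ring
  obtain ⟨w, hw⟩ := exists_cyclic (N := Matrix.mulVecLin (yac u)) hV
    (by rw [← mulVecLin_pow, hS.nil, Matrix.mulVecLin_zero]) hr (by omega)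
  rw [← mulVecLin_pow, Matrix.mulVecLin_apply] at hw
  have hw' : yac u' ^ (2 * m - 1) *ᵥ (G *ᵥ w) ≠ 0 := by
    have h1 : SemiconjBy G (yac u) (yac u') := yac_conj h2 h.nilp h'.nilp hG
    have h3 : yac u' ^ (2 * m - 1) * G = G * yac u ^ (2 * m - 1) := ((h1.pow_right _).eq).symm
    rw [Matrix.mulVec_mulVec, h3, ← Matrix.mulVec_mulVec]
    intro h0
    apply hw
    have h5 := congrArg (fun v => Ring.inverse G *ᵥ v) h0
    simp only [Matrix.mulVec_mulVec, Matrix.mulVec_zero] at h5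
    rw [← mul_assoc, Ring.inverse_mul_cancel _ hGu, Matrix.one_mul] at h5
    exact h5
  have hQ := Qf_of_poly hS h2 hm h.nilp h'.nilp hG hp w
  have hne := Qf_ne hS hr hm hw
  have hne' := Qf_ne hS' hr' hm hw'
  have hp0 : p.coeff 0 ≠ 0 := by
    intro h0
    rw [h0, zero_mul] at hQ
    exact hne' hQ
  have hsq : IsSquare (p.coeff 0) := by
    apply isSquare_of_iff hp0 hne
    rw [← hQ, ← sq_iff h2 hm h hw, ← sq_iff h2 hm h' hw']
    exact hs
  obtain ⟨c, hc⟩ := hsq
  have hc0 : c ≠ 0 := by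
    intro h0
    rw [h0, mul_zero] at hc
    exact hp0 hc
  exact conj_of_square h2 hm h h' hGu hG hp hc0 (by rw [hc]; ring)

/-- The similitude `diag(ν, 1)`. -/
def simil (ν : F) : Matrix (Fin m ⊕ Fin m) (Fin m ⊕ Fin m) F :=
  Matrix.fromBlocks (ν • 1) 0 0 1

omit [Fintype F] in
theorem adj_simil (ν : F) : adj (simil (m := m) ν) * simil ν = ν • 1 := by
  simp only [adj, simil, Matrix.J, Matrix.fromBlocks_transpose, Matrix.fromBlocks_multiply]
  simp [Matrix.fromBlocks_neg]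
  rw [Matrix.fromBlocks_multiply, ← Matrix.fromBlocks_one, Matrix.fromBlocks_smul]
  simp

/-- A regular element with the opposite invariant. -/
theorem exists_other (h2 : (2 : F) ≠ 0) (hm : 1 ≤ m) {u : Matrix (Fin m ⊕ Fin m) (Fin m ⊕ Fin m) F} (h : IsRegSp u)
    {ν : F} (hν : ¬ IsSquare ν) : ∃ u' : Matrix (Fin m ⊕ Fin m) (Fin m ⊕ Fin m) F, IsRegSp u' ∧ (Sq u' ↔ ¬ Sq u) := by
  have hν0 : ν ≠ 0 := fun h0 => hν (by rw [h0]; exact IsSquare.zero)
  set g := simil (m := m) ν with hg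
  set g' := simil (m := m) ν⁻¹ with hg'
  have h1 : g * g' = 1 := by
    simp only [hg, hg', simil, Matrix.fromBlocks_multiply]
    simp [smul_smul, hν0]
  have h3 : g' * g = 1 := mul_eq_one_comm.mp h1
  have ha := adj_simil (m := m) ν
  have ha' := adj_simil (m := m) ν⁻¹
  rw [← hg] at ha
  rw [← hg'] at ha'
  let u' := g * u * g'
  have hconj : ∀ X : Matrix (Fin m ⊕ Fin m) (Fin m ⊕ Fin m) F, ∀ k : ℕ, (g * X * g') ^ k = g * X ^ k * g' := by
    intro X k
    have hu : IsUnit g := IsUnit.of_mul_eq_one _ h1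
    induction k with
    | zero => simp [h1]
    | succ k ih =>
      rw [pow_succ, ih, pow_succ]
      calc g * X ^ k * g' * (g * X * g') = g * X ^ k * (g' * g) * X * g' := by noncomm_ring
        _ = _ := by rw [h3, mul_one]; noncomm_ring
  have hsub : u' - 1 = g * (u - 1) * g' := by
    simp only [u', mul_sub, sub_mul, mul_one, h1]
  have hdg : IsUnit g.det := Matrix.isUnit_det_of_left_inverse h3
  have hdg' : IsUnit g'.det := Matrix.isUnit_det_of_left_inverse h1
  have hreg : IsRegSp u' := by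
    refine ⟨?_, ?_, ?_⟩
    · simp only [u', adj_adj.mul]
      calc adj g' * (adj u * adj g) * (g * u * g') = adj g' * adj u * (adj g * g) * u * g' := by noncomm_ring
        _ = ν • (adj g' * (adj u * u) * g') := by
            rw [ha]
            simp only [mul_smul_comm, smul_mul_assoc, mul_one]
            noncomm_ring
        _ = ν • (adj g' * g') := by rw [h.iso, mul_one]
        _ = 1 := by rw [ha', smul_smul, mul_inv_cancel₀ hν0, one_smul]
    · rw [hsub, hconj, h.nil, mul_zero, zero_mul]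
    · rw [hsub, Matrix.rank_mul_eq_left_of_isUnit_det _ _ hdg', Matrix.rank_mul_eq_right_of_isUnit_det _ _ hdg, h.rank]
  refine ⟨u', hreg, ?_⟩
  have hG : g * u = u' * g := by
    simp only [u']
    rw [mul_assoc (g * u), h3, mul_one]
  have hS := h.reg h2 hm
  have hS' := hreg.reg h2 hm
  have hr := rank_yac h2 h
  have hr' := rank_yac h2 hreg
  have hp : adj g * g = Polynomial.aeval (yac u) (C ν) := by
    rw [ha, aeval_C, Algebra.algebraMap_eq_smul_one]
  have hV : finrank F (Fin m ⊕ Fin m → F) = 2 * m := by simp; ring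
  obtain ⟨w, hw⟩ := exists_cyclic (N := Matrix.mulVecLin (yac u)) hV
    (by rw [← mulVecLin_pow, hS.nil, Matrix.mulVecLin_zero]) hr (by omega)
  rw [← mulVecLin_pow, Matrix.mulVecLin_apply] at hw
  have hw' : yac u' ^ (2 * m - 1) *ᵥ (g *ᵥ w) ≠ 0 := by
    have h5 : SemiconjBy g (yac u) (yac u') := yac_conj h2 h.nilp hreg.nilp hG
    have h6 : yac u' ^ (2 * m - 1) * g = g * yac u ^ (2 * m - 1) := ((h5.pow_right _).eq).symm
    rw [Matrix.mulVec_mulVec, h6, ← Matrix.mulVec_mulVec]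
    intro h0
    apply hw
    have h7 := congrArg (fun v => g' *ᵥ v) h0
    simp only [Matrix.mulVec_mulVec, Matrix.mulVec_zero] at h7
    rw [← mul_assoc, h3, Matrix.one_mul] at h7
    exact h7
  have hQ := Qf_of_poly hS h2 hm h.nilp hreg.nilp hG hp w
  rw [coeff_C_zero] at hQ
  rw [sq_iff h2 hm h hw, sq_iff h2 hm hreg hw', hQ]
  exact isSquare_mul_nonsq hν (Qf_ne hS hr hm hw)

end invariant

end Cfsg.Agent.Lib.SpReg.Classes
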