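import Cfsg.Agent.Lib.SpReg.Matrix
import Cfsg.Agent.Lib.Witt.SympModel

/-!
Existence of regular unipotent elements in `Sp_2m(F)`, characteristic not two.
-/

set_option autoImplicit false
open Polynomial Module Cfsg Cfsg.Agent.Lib.MatConj.RegUnip Cfsg.Agent.Lib.SpReg.Cayley Cfsg.Agent.Lib.SpReg.SpMat
open Cfsg.Agent.Lib.Classical.SympForm
open scoped Matrix

namespace Cfsg.Agent.Lib.SpReg.Exists

section rank
variable {F V : Type*} [Field F] [AddCommGroup V] [Module F V] [FiniteDimensional F V] {n : ℕ} {N : V →ₗ[F] V}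

/-- A nilpotent map with a vector of full height has rank `n - 1`. -/
theorem finrank_range_of_cyclic (hV : finrank F V = n) (hn : 1 ≤ n) (hnil : N ^ n = 0) {w : V}
    (hw : (N ^ (n - 1)) w ≠ 0) : finrank F (LinearMap.range N) = n - 1 := by
  have hli := linearIndependent_pow hnil hw
  have h1 : finrank F (LinearMap.ker N) ≠ 0 := by
    intro h0
    have h2 : LinearMap.ker N = ⊥ := Submodule.finrank_eq_zero.mp h0
    apply hw
    have h3 : N ((N ^ (n - 1)) w) = 0 := by
      have h4 : N ^ n = N * N ^ (n - 1) := by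
        rw [← pow_succ']
        congr 1
        omega
      have h5 := LinearMap.congr_fun (h4.symm.trans hnil) w
      simpa [Module.End.mul_apply] using h5
    have h6 : (N ^ (n - 1)) w ∈ LinearMap.ker N := h3
    rw [h2] at h6
    exact h6
  have h7 := LinearMap.finrank_range_add_finrank_ker N
  have h8 : n - 1 ≤ finrank F (LinearMap.range N) := by
    let v : Fin (n - 1) → LinearMap.range N := fun i => ⟨(N ^ ((i : ℕ) + 1)) w, by
      refine ⟨(N ^ (i : ℕ)) w, ?_⟩
      rw [pow_succ']
      rfl⟩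
    have hv : LinearIndependent F v := by
      apply LinearIndependent.of_comp (LinearMap.range N).subtype
      have h9 : LinearIndependent F (fun i : Fin (n - 1) => (N ^ (((Fin.castLE (by omega : n - 1 + 1 ≤ n) i.succ) : Fin n) : ℕ)) w) :=
        hli.comp _ (fun a b hab => by
          have := Fin.castLE_injective _ hab
          exact Fin.succ_injective _ this)
      convert h9 using 1
      funext i
      rfl
    have := hv.fintype_card_le_finrank
    simpa using this
  omega

end rank

section model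
variable {F : Type*} [Field F] {k : ℕ}

/-- The shift on `F^(k+1)`. -/
def shift : (Fin (k + 1) → F) →ₗ[F] (Fin (k + 1) → F) where
  toFun x := Fin.cons 0 (fun i => x i.castSucc)
  map_add' x y := by
    funext i
    refine Fin.cases ?_ (fun j => ?_) i <;> simp
  map_smul' c x := by
    funext i
    refine Fin.cases ?_ (fun j => ?_) i <;> simp

@[simp] theorem shift_zero (x : Fin (k + 1) → F) : shift x 0 = 0 := rfl
@[simp] theorem shift_succ (x : Fin (k + 1) → F) (i : Fin k) : shift x i.succ = x i.castSucc := rfl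

theorem shift_pow_lt (j : ℕ) (x : Fin (k + 1) → F) (i : Fin (k + 1)) (h : (i : ℕ) < j) : ((shift ^ j) x) i = 0 := by
  induction j generalizing i with
  | zero => omega
  | succ j ih =>
    rw [pow_succ', Module.End.mul_apply]
    refine Fin.cases (by simp) (fun i' hi' => ?_) i h
    rw [shift_succ]
    apply ih
    simp only [Fin.val_succ] at hi'
    simpa using (by omega : (i' : ℕ) < j)

theorem shift_pow_top (x : Fin (k + 1) → F) : (shift ^ (k + 1)) x = 0 := by
  funext i
  exact shift_pow_lt _ _ _ i.2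

theorem shift_pow_eq (j : ℕ) (h : j < k + 1) (x : Fin (k + 1) → F) : ((shift ^ j) x) ⟨j, h⟩ = x 0 := by
  induction j with
  | zero => rfl
  | succ j ih =>
    rw [pow_succ', Module.End.mul_apply]
    have h1 : (⟨j + 1, h⟩ : Fin (k + 1)) = (⟨j, by omega⟩ : Fin k).succ := rfl
    rw [h1, shift_succ]
    exact ih (by omega)

/-- The model form. -/
noncomputable def mform (k : ℕ) (F : Type*) [Field F] : LinearMap.BilinForm F (Fin (k + 1) → F) :=
  LinearMap.mk₂ F (fun x y => ∑ i : Fin (k + 1), (-1) ^ (i : ℕ) * (x i * y i.rev))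
    (fun a b c => by
      simp only [Pi.add_apply, add_mul, mul_add, Finset.sum_add_distrib])
    (fun c a b => by
      simp only [Pi.smul_apply, smul_eq_mul, Finset.mul_sum]
      refine Finset.sum_congr rfl fun i _ => ?_
      ring)
    (fun a b c => by
      simp only [Pi.add_apply, mul_add, Finset.sum_add_distrib])
    (fun c a b => by
      simp only [Pi.smul_apply, smul_eq_mul, Finset.mul_sum]
      refine Finset.sum_congr rfl fun i _ => ?_
      ring)

theorem mform_apply (x y : Fin (k + 1) → F) :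
    mform k F x y = ∑ i : Fin (k + 1), (-1) ^ (i : ℕ) * (x i * y i.rev) := rfl

theorem mform_shift (x y : Fin (k + 1) → F) : mform k F (shift x) y = - mform k F x (shift y) := by
  rw [mform_apply, mform_apply, Fin.sum_univ_succ, Fin.sum_univ_castSucc (n := k)]
  have h1 : (Fin.last k).rev = 0 := by
    apply Fin.ext
    simp
  simp only [shift_zero, zero_mul, mul_zero, add_zero, zero_add, h1, Fin.rev_castSucc, shift_succ, Fin.val_succ, Fin.val_castSucc]
  rw [← Finset.sum_neg_distrib]
  refine Finset.sum_congr rfl fun i _ => ?_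
  rw [Fin.rev_succ, pow_succ]
  ring

theorem mform_alt (h2 : (2 : F) ≠ 0) (hk : Odd k) : (mform k F).IsAlt := by
  intro x
  rw [mform_apply]
  set S := ∑ i : Fin (k + 1), (-1 : F) ^ (i : ℕ) * (x i * x i.rev) with hS
  have h1 : S = - S := by
    conv_lhs => rw [hS, ← Equiv.sum_comp Fin.revPerm]
    rw [hS, ← Finset.sum_neg_distrib]
    refine Finset.sum_congr rfl fun i _ => ?_
    simp only [Fin.revPerm_apply, Fin.rev_rev]
    have h3 : ((i.rev : Fin (k + 1)) : ℕ) + (i : ℕ) = k := by
      rw [Fin.val_rev]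
      have := i.2
      omega
    have h4 : (-1 : F) ^ ((i.rev : Fin (k + 1)) : ℕ) * (-1) ^ (i : ℕ) = -1 := by
      rw [← pow_add, h3]
      exact hk.neg_one_pow
    have h5 : (-1 : F) ^ (i : ℕ) * (-1) ^ (i : ℕ) = 1 := by
      rw [← pow_add, ← two_mul, pow_mul]
      simp
    have h6 : (-1 : F) ^ ((i.rev : Fin (k + 1)) : ℕ) = - (-1) ^ (i : ℕ) := by
      linear_combination (-1 : F) ^ (i : ℕ) * h4 - (-1 : F) ^ ((i.rev : Fin (k + 1)) : ℕ) * h5
    rw [h6]
    ring
  have h3 : (2 : F) * S = 0 := by
    linear_combination h1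
  exact (mul_eq_zero.mp h3).resolve_left h2

theorem mform_nondeg (h2 : (2 : F) ≠ 0) (hk : Odd k) : (mform k F).Nondegenerate := by
  classical
  have hL : LinearMap.SeparatingLeft (mform k F) := by
    intro x hx
    funext i
    have h1 := hx (Pi.single i.rev 1)
    rw [mform_apply, Finset.sum_eq_single i] at h1
    · simp only [Pi.single_eq_same, mul_one] at h1
      have h3 : (-1 : F) ^ (i : ℕ) ≠ 0 := pow_ne_zero _ (neg_ne_zero.mpr one_ne_zero)
      exact (mul_eq_zero.mp h1).resolve_left h3
    · intro j _ hj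
      have : j.rev ≠ i.rev := fun h => hj (Fin.rev_injective h)
      simp [this]
    · simp
  exact (LinearMap.IsRefl.nondegenerate_iff_separatingLeft (mform_alt h2 hk).isRefl).2 hL

end model

section exist
variable {F : Type*} [Field F] {m : ℕ}

/-- Existence of a regular unipotent element of `Sp_2m(F)`, `m ≥ 1`, char `≠ 2`. -/
theorem exists_regular (h2 : (2 : F) ≠ 0) (hm : 1 ≤ m) :
    ∃ u : Matrix (Fin m ⊕ Fin m) (Fin m ⊕ Fin m) F, adj u * u = 1 ∧ (u - 1) ^ (2 * m) = 0 ∧
      (u - 1).rank = 2 * m - 1 := by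
  classical
  obtain ⟨k, hk⟩ : ∃ k, 2 * m = k + 1 := ⟨2 * m - 1, by omega⟩
  have hodd : Odd k := ⟨m - 1, by omega⟩
  obtain ⟨ψ, hψ⟩ := Cfsg.Agent.Lib.Witt.SympModel.exists_model (mform k F) (mform_alt h2 hodd)
    (mform_nondeg h2 hodd) m (by simp [hk])
  let s : Matrix (Fin m ⊕ Fin m) (Fin m ⊕ Fin m) F :=
    LinearMap.toMatrix' ((ψ.symm : (Fin (k + 1) → F) →ₗ[F] _) ∘ₗ shift ∘ₗ (ψ : _ →ₗ[F] (Fin (k + 1) → F)))
  have hs : ∀ x, s *ᵥ x = ψ.symm (shift (ψ x)) := by
    intro x
    simp only [s, LinearMap.toMatrix'_mulVec]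
    rfl
  have hspow : ∀ (j : ℕ) x, (s ^ j) *ᵥ x = ψ.symm ((shift ^ j) (ψ x)) := by
    intro j
    induction j with
    | zero => intro x; simp
    | succ j ih =>
      intro x
      rw [pow_succ', ← Matrix.mulVec_mulVec, ih, hs, pow_succ', Module.End.mul_apply]
      simp
  have hnil : s ^ (k + 1) = 0 := by
    apply Matrix.ext_iff_mulVec.2
    intro x
    rw [hspow, shift_pow_top]
    simp
  have hcyc : (Matrix.mulVecLin s ^ k) (ψ.symm (Pi.single 0 1)) ≠ 0 := by
    rw [← mulVecLin_pow, Matrix.mulVecLin_apply, hspow]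
    intro h0
    have h1 := ψ.symm.map_eq_zero_iff.mp h0
    have h3 := congrFun h1 ⟨k, by omega⟩
    rw [shift_pow_eq] at h3
    simp at h3
  have hrank : s.rank = k + 1 - 1 := by
    apply finrank_range_of_cyclic (N := Matrix.mulVecLin s) (n := k + 1) (w := ψ.symm (Pi.single 0 1)) (by simp; omega) (by omega)
    · rw [← mulVecLin_pow, hnil, Matrix.mulVecLin_zero]
    · simpa using hcyc
  have hform : ∀ x y, sympForm m F (s *ᵥ x) y = - sympForm m F x (s *ᵥ y) := by
    intro x y
    rw [← hψ, ← hψ, hs, hs, ψ.apply_symm_apply, ψ.apply_symm_apply, mform_shift]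
  have hskew : adj s = - s := by
    apply Matrix.ext_iff_mulVec.2
    intro y
    have h1 : adj s *ᵥ y - (-s) *ᵥ y = 0 := by
      apply sympBilin_nondegenerate.2
      intro x
      rw [map_sub, sympBilin_apply, sympBilin_apply, ← form_adj, hform, Matrix.neg_mulVec]
      have h3 : sympForm m F x (-(s *ᵥ y)) = - sympForm m F x (s *ᵥ y) := by
        rw [← sympBilin_apply, map_neg, sympBilin_apply]
      rw [h3]
      ring
    exact sub_eq_zero.mp h1
  have hnilp : IsNilpotent s := ⟨_, hnil⟩
  have hunit := one_sub_unit hnilp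
  have hinv : IsUnit (Ring.inverse (1 - s)).det :=
    Matrix.isUnit_det_of_left_inverse (Ring.mul_inverse_cancel _ hunit)
  have hcomm : Commute (s + s) (Ring.inverse (1 - s)) :=
    (comm_self_inverse hnilp).add_left (comm_self_inverse hnilp)
  have h22 : s + s = (2 : F) • s := by rw [two_smul]
  refine ⟨cay s, cay_isom adj_adj hskew hnilp, ?_, ?_⟩
  · rw [cay_sub_one hnilp, hcomm.mul_pow, hk, h22, _root_.smul_pow, hnil, smul_zero, zero_mul]
  · rw [cay_sub_one hnilp, Matrix.rank_mul_eq_left_of_isUnit_det _ _ hinv, hk, ← hrank]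
    have h3 : s + s = ((2 : F) • (1 : Matrix (Fin m ⊕ Fin m) (Fin m ⊕ Fin m) F)) * s := by
      rw [h22, smul_mul_assoc, one_mul]
    rw [h3]
    apply Matrix.rank_mul_eq_right_of_isUnit_det
    rw [Matrix.det_smul, Matrix.det_one, mul_one]
    exact (IsUnit.mk0 _ h2).pow _

end exist

end Cfsg.Agent.Lib.SpReg.Exists
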