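import Cfsg.Agent.Lib.SpReg.Cayley
import Cfsg.Agent.Lib.Jordan.RegGU
import Cfsg.Agent.Lib.Classical.SympForm

/-!
The symplectic adjoint on matrices, and regular unipotent elements of `Sp`.
-/

set_option autoImplicit false
open Polynomial Module Cfsg Cfsg.Agent.Lib.MatConj.RegUnip Cfsg.Agent.Lib.SpReg.Cayley
open scoped Matrix

namespace Cfsg.Agent.Lib.SpReg.SpMat

section general
variable {F : Type*} [Field F] {ι : Type*} [Fintype ι] [DecidableEq ι]

/-- A regular nilpotent matrix: the polynomial data. -/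
theorem regSkew_of {θ : Matrix ι ι F → Matrix ι ι F} (hθ : Adj F θ) {s : Matrix ι ι F} {n : ℕ}
    (hcard : Fintype.card ι = n) (hn : 1 ≤ n) (hskew : θ s = -s) (hnil : s ^ n = 0)
    (hrank : s.rank = n - 1) : RegSkew F θ s n := by
  classical
  have hV : finrank F (ι → F) = n := by simp [hcard]
  have hnil' : (Matrix.mulVecLin s) ^ n = 0 := by
    rw [← mulVecLin_pow, hnil, Matrix.mulVecLin_zero]
  refine ⟨hθ, hskew, hnil, ?_, ?_⟩
  · intro p hp
    obtain ⟨w, hw⟩ := exists_cyclic hV hnil' hrank hn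
    have hli := linearIndependent_pow hnil' hw
    rw [Fintype.linearIndependent_iff] at hli
    have h1 : p.coeff = fun i => p.coeff i := rfl
    let p' : F[X] := ∑ i : Fin n, monomial (i : ℕ) (p.coeff i)
    have h2 : ∀ i < n, p.coeff i = p'.coeff i := by
      intro i hi
      simp only [p', finsetSum_coeff, coeff_monomial]
      rw [Finset.sum_eq_single (⟨i, hi⟩ : Fin n)]
      · simp
      · intro b _ hb
        rw [if_neg]
        intro h
        exact hb (Fin.ext h)
      · simp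
    have h3 := aeval_eq_of_coeff hnil p p' h2
    rw [hp] at h3
    have h4 : ∑ i : Fin n, p.coeff i • ((Matrix.mulVecLin s) ^ (i : ℕ)) w = 0 := by
      have h5 := congrArg (fun M : Matrix ι ι F => M *ᵥ w) h3
      simp only [Matrix.zero_mulVec, p', map_sum, aeval_monomial, Algebra.algebraMap_eq_smul_one, smul_mul_assoc, one_mul] at h5
      rw [Matrix.sum_mulVec] at h5
      rw [h5]
      refine Finset.sum_congr rfl fun i _ => ?_
      rw [Matrix.smul_mulVec, ← mulVecLin_pow, Matrix.mulVecLin_apply]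
    intro i hi
    exact hli _ h4 ⟨i, hi⟩
  · intro T hT
    obtain ⟨p, hp⟩ := Cfsg.Agent.Lib.Jordan.RegGU.exists_poly_of_comm (V := ι → F) (n := n) (N := Matrix.toLinAlgEquiv' s) hV
      (by
        rw [← map_pow, hnil, map_zero])
      hrank hn (Matrix.toLinAlgEquiv' T)
      (by rw [← map_mul, ← map_mul, hT.eq])
    refine ⟨p, ?_⟩
    apply (Matrix.toLinAlgEquiv' (R := F) (n := ι)).injective
    rw [hp]
    exact aeval_algHom_apply (Matrix.toLinAlgEquiv' (R := F) (n := ι)).toAlgHom s p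

end general

section symp
variable {F : Type*} [Field F] {m : ℕ}

local notation "Mat" => Matrix (Fin m ⊕ Fin m) (Fin m ⊕ Fin m) F
local notation "JJ" => Matrix.J (Fin m) F

/-- The adjoint with respect to the symplectic form. -/
def adj (M : Matrix (Fin m ⊕ Fin m) (Fin m ⊕ Fin m) F) : Matrix (Fin m ⊕ Fin m) (Fin m ⊕ Fin m) F :=
  -(JJ * Mᵀ * JJ)

theorem adj_adj : Adj F (adj (F := F) (m := m)) where
  add x y := by
    simp only [adj, Matrix.transpose_add, mul_add, add_mul, neg_add]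
  mul x y := by
    simp only [adj, Matrix.transpose_mul]
    have h : JJ * JJ = -1 := Matrix.J_squared _ _
    calc -(JJ * (yᵀ * xᵀ) * JJ) = -(JJ * yᵀ * (1 : Mat) * xᵀ * JJ) := by simp [mul_assoc]
      _ = JJ * yᵀ * (JJ * JJ) * xᵀ * JJ := by
        rw [h]
        simp [mul_assoc]
      _ = -(JJ * yᵀ * JJ) * -(JJ * xᵀ * JJ) := by
        simp only [neg_mul_neg, mul_assoc]
  one := by
    simp only [adj, Matrix.transpose_one, mul_one, Matrix.J_squared, neg_neg]
  smul c x := by
    simp only [adj, Matrix.transpose_smul, Matrix.smul_mul, Matrix.mul_smul, smul_neg]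
  invol x := by
    have h : JJ * JJ = -1 := Matrix.J_squared _ _
    have h1 : (adj x)ᵀ = -(JJ * x * JJ) := by
      simp only [adj, Matrix.transpose_neg, Matrix.transpose_mul, Matrix.J_transpose, Matrix.transpose_transpose]
      simp only [mul_neg, neg_mul, neg_neg, mul_assoc]
    show -(JJ * (adj x)ᵀ * JJ) = x
    rw [h1]
    calc -(JJ * -(JJ * x * JJ) * JJ) = (JJ * JJ) * x * (JJ * JJ) := by
          simp only [mul_neg, neg_mul, neg_neg, mul_assoc]
      _ = x := by rw [h]; simp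

theorem adj_mul_eq_one_iff (A : Matrix (Fin m ⊕ Fin m) (Fin m ⊕ Fin m) F) :
    adj A * A = 1 ↔ A ∈ Matrix.symplecticGroup (Fin m) F := by
  rw [SymplecticGroup.mem_iff']
  have h : JJ * JJ = -1 := Matrix.J_squared _ _
  constructor
  · intro h1
    have h2 : JJ * (adj A * A) = JJ := by rw [h1, mul_one]
    have h3 : JJ * (adj A * A) = Aᵀ * JJ * A := by
      simp only [adj]
      calc JJ * (-(JJ * Aᵀ * JJ) * A) = -(JJ * JJ) * (Aᵀ * JJ * A) := by
            simp only [neg_mul, mul_neg, mul_assoc]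
        _ = _ := by rw [h]; simp
    rw [← h3, h2]
  · intro h1
    simp only [adj]
    calc -(JJ * Aᵀ * JJ) * A = -(JJ * (Aᵀ * JJ * A)) := by
          simp only [neg_mul, mul_assoc]
      _ = 1 := by rw [h1, h]; simp

/-- The defining property of the adjoint. -/
theorem form_adj (M : Matrix (Fin m ⊕ Fin m) (Fin m ⊕ Fin m) F) (x y : Fin m ⊕ Fin m → F) :
    sympForm m F (M *ᵥ x) y = sympForm m F x (adj M *ᵥ y) := by
  have h : JJ * JJ = -1 := Matrix.J_squared _ _
  have h1 : JJ *ᵥ (adj M *ᵥ y) = Mᵀ *ᵥ (JJ *ᵥ y) := by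
    simp only [adj, Matrix.mulVec_mulVec]
    congr 1
    calc JJ * -(JJ * Mᵀ * JJ) = -(JJ * JJ) * (Mᵀ * JJ) := by
          simp only [mul_neg, neg_mul, mul_assoc]
      _ = _ := by rw [h]; simp
  simp only [sympForm]
  rw [h1, Matrix.dotProduct_mulVec x Mᵀ, Matrix.vecMul_transpose]

/-- The Cayley transform of a regular unipotent isometry. -/
theorem regSkew_yac (h2 : (2 : F) ≠ 0) (hm : 1 ≤ m) (u : Matrix (Fin m ⊕ Fin m) (Fin m ⊕ Fin m) F)
    (hu : adj u * u = 1) (hnil : (u - 1) ^ (2 * m) = 0) (hreg : (u - 1).rank = 2 * m - 1) :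
    RegSkew F adj (yac u) (2 * m) := by
  have hN : IsNilpotent (u - 1) := ⟨_, hnil⟩
  have hunit := add_one_unit (R := Matrix (Fin m ⊕ Fin m) (Fin m ⊕ Fin m) F) h2 hN
  have hcomm : Commute (u - 1) (Ring.inverse (u + 1)) := by
    apply Commute.symm
    apply comm_inverse hunit
    show (u + 1) * (u - 1) = (u - 1) * (u + 1)
    noncomm_ring
  have hinv : IsUnit (Ring.inverse (u + 1)).det :=
    Matrix.isUnit_det_of_left_inverse (Ring.mul_inverse_cancel _ hunit)
  apply regSkew_of adj_adj (by simp; ring) (by omega) (yac_skew h2 adj_adj hN hu)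
  · unfold yac
    rw [hcomm.mul_pow, hnil, zero_mul]
  · unfold yac
    rw [Matrix.rank_mul_eq_left_of_isUnit_det _ _ hinv, hreg]

/-- The centraliser of a regular unipotent element of `Sp`, as a set of matrices. -/
theorem card_centralizer [Fintype F] (h2 : (2 : F) ≠ 0) (hm : 1 ≤ m) (u : Matrix.symplecticGroup (Fin m) F)
    (hnil : ((u : Matrix (Fin m ⊕ Fin m) (Fin m ⊕ Fin m) F) - 1) ^ (2 * m) = 0)
    (hreg : ((u : Matrix (Fin m ⊕ Fin m) (Fin m ⊕ Fin m) F) - 1).rank = 2 * m - 1) :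
    Nat.card ↥(Subgroup.centralizer ({u} : Set ↥(Matrix.symplecticGroup (Fin m) F))) = 2 * Fintype.card F ^ m := by
  have hu : adj (u : Matrix (Fin m ⊕ Fin m) (Fin m ⊕ Fin m) F) * u = 1 := (adj_mul_eq_one_iff _).mpr u.2
  have hN : IsNilpotent ((u : Matrix (Fin m ⊕ Fin m) (Fin m ⊕ Fin m) F) - 1) := ⟨_, hnil⟩
  have hS := regSkew_yac h2 hm (u : Matrix (Fin m ⊕ Fin m) (Fin m ⊕ Fin m) F) hu hnil hreg
  rw [← hS.card_cent h2 hm]
  apply Nat.card_congr
  refine
    { toFun := fun g => ⟨(g.1 : Matrix (Fin m ⊕ Fin m) (Fin m ⊕ Fin m) F), (adj_mul_eq_one_iff _).mpr g.1.2, ?_⟩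
      invFun := fun g => ⟨⟨g.1, (adj_mul_eq_one_iff _).mp g.2.1⟩, ?_⟩
      left_inv := ?_
      right_inv := ?_ }
  · apply Commute.symm
    have h1 : Commute (u : Matrix (Fin m ⊕ Fin m) (Fin m ⊕ Fin m) F) (g.1 : Matrix (Fin m ⊕ Fin m) (Fin m ⊕ Fin m) F) := by
      have := Subgroup.mem_centralizer_singleton_iff.mp g.2
      have h3 := congrArg Subtype.val this
      exact h3.symm
    exact (comm_yac h2 hN h1)
  · rw [Subgroup.mem_centralizer_singleton_iff]
    apply Subtype.ext
    have h1 := cay_comm (hS.skew_nil h2 hS.skew (Commute.refl _)) g.2.2.symm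
    rw [cay_yac h2 hN] at h1
    exact h1.eq.symm
  · intro g
    rfl
  · intro g
    rfl

end symp

end Cfsg.Agent.Lib.SpReg.SpMat
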